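import Cfsg.Agent.H6.Cert
import Cfsg.Agent.H6.HNR.N.Pres

set_option autoImplicit false
set_option maxRecDepth 100000
set_option Elab.async false

namespace Cfsg.H6.HNR.N.C3

noncomputable def get (y : ℕ) : ℕ := (sel (nat_lit 1) y (nat_lit 0x0) (nat_lit 0x2000007000006010000060000070200000500000701000007000005010000040000060200000600000402000003000005010000050000030100000200000402000004000002020000010000030100000300000101000000000002020000020000000200000000000101000001000000))
noncomputable def gs (y : ℕ) : ℕ := (sel (nat_lit 2) y (sel (nat_lit 1) y (nat_lit 0x0) (nat_lit 0x0)) (sel (nat_lit 3) y (nat_lit 0x0) (sel (nat_lit 4) y (nat_lit 0x0) (nat_lit 0x8000002800000280000028000002800000280000028000002800000280000028000002800000280000028000002800000280000028000002800000280000028000002800000280000028000002800000280000028000001000020a00002060000202000020100002050000209000020d8000000800000080000008000000800000080000008000000))))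
noncomputable def gd (_y : ℕ) : ℕ := (nat_lit 0x20c000020a000020800002060000204000020200002000000000)
noncomputable def gwh (y : ℕ) : ℕ := (sel (nat_lit 1) y (nat_lit 0x202020202020202000008000000) (nat_lit 0x1))
noncomputable def gc (y : ℕ) : ℕ := (sel (nat_lit 1) y (nat_lit 0x20e000020b000020c00002070000208000020300002040000200) (nat_lit 0x20d000020f0000209000020a0000205000020600002010000202))

theorem b0 : allR (blk get gs (gwB gwh 2) gd 66048) 4 1 = true := by decide +kernel

theorem c0 : allR (clo get gc 8 576 1) 0 2 = true := by decide +kernel

def sg : List (List ℕ) := [[], [2], [3]]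

def BL : List ℕ := [0x202020202020202, 0x0]

def Sub : List (List ℕ) := []

theorem hA : prepA 17213620480 HNR.N.R sg 66048 BL Sub get gd = true := by decide +kernel

theorem hw : allR (okW BL gwh) 0 2 = true := by decide +kernel

theorem hb : ∀ b, 4 ≤ b → b < 5 → blk get gs (gwB gwh 2) gd 66048 b = true :=
  (allR_range b0 (by norm_num : 4 + 1 = 5))

def X : List (List ℕ) := [[2]]

theorem hC : prepC sg 66048 X 2 8 1 = true := by decide +kernel

theorem hc : ∀ t, 0 ≤ t → t < 2 * 1 → clo get gc 8 576 1 t = true :=
  (allR_range c0 (by norm_num : 0 + 2 = 2))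

theorem cover {G : Type*} [Group G] {ev : ℕ → G} (hev : Good ev 17213620480) (hR : Rels ev HNR.N.R) :
    Cover (gen ev Sub) (gen ev X) 8 :=
  cert_cover hev hR hA hC hw hb (by norm_num) hc


end Cfsg.H6.HNR.N.C3
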